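import Mathlib
import Cfsg.Agent.Lib.Helper67.PGroupAct

/-!
Abstract core of the four-group lemma for `J(T)`-components: an elementary abelian `2`-group `W`
with a fixed-point-free automorphism `δ` (conjugation by `k`), acted on by an elementary abelian
`2`-group `A = A₀ ∪ a A₀` where `A₀` commutes with `δ` and `a` inverts it, such that `A` is a
"best offender" (`hstar`), has order `4`.
-/

set_option autoImplicit false

namespace Cfsg.Agent.Lib.Helper15.KS12

open Subgroup

variable {G : Type*} [Group G]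

theorem four_group_core [Finite G] (W A A₀ : Subgroup G) (k a : G)
    (hWc : ∀ x ∈ W, ∀ y ∈ W, x * y = y * x)
    (hW2 : ∀ x ∈ W, x * x = 1)
    (hW1 : W ≠ ⊥)
    (hkW : ∀ w ∈ W, k * w * k⁻¹ ∈ W)
    (hfix : ∀ w ∈ W, k * w * k⁻¹ = w → w = 1)
    (hAW : ∀ x ∈ A, ∀ w ∈ W, x * w * x⁻¹ ∈ W)
    (hAc : ∀ x ∈ A, ∀ y ∈ A, x * y = y * x)
    (hA2 : ∀ x ∈ A, x * x = 1)
    (hA₀ : A₀ ≤ A) (ha : a ∈ A)
    (hA : ∀ x ∈ A, x ∈ A₀ ∨ a * x ∈ A₀)
    (hcomm : ∀ x ∈ A₀, ∀ w ∈ W, x * (k * w * k⁻¹) * x⁻¹ = k * (x * w * x⁻¹) * k⁻¹)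
    (hinv : ∀ w ∈ W, a * (k * w * k⁻¹) * a⁻¹ = k * (k * (a * w * a⁻¹) * k⁻¹) * k⁻¹)
    (hstar : ∀ D U' : Subgroup G, D ≤ A → U' ≤ W → (∀ d ∈ D, ∀ u ∈ U', d * u = u * d) →
      Nat.card D * Nat.card U' ≤ Nat.card A * Nat.card ↥(U' ⊓ centralizer (A : Set G))) :
    Nat.card W = 4 := by
  classical
  have : Fact (Nat.Prime 2) := ⟨Nat.prime_two⟩
  -- basic facts
  have hinvW : ∀ w ∈ W, w⁻¹ = w := fun w hw => inv_eq_of_mul_eq_one_right (hW2 w hw)
  have hAp : IsPGroup 2 A := fun g => ⟨1, Subtype.ext (by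
    have := hA2 g g.2
    simp [pow_two, this])⟩
  have hWp : IsPGroup 2 W := fun g => ⟨1, Subtype.ext (by
    have := hW2 g g.2
    simp [pow_two, this])⟩
  have hAnW : A ≤ normalizer (W : Set G) := by
    intro x hx
    rw [mem_normalizer_iff]
    intro h
    constructor
    · exact hAW x hx h
    · intro hh
      have := hAW x⁻¹ (A.inv_mem hx) _ hh
      simpa [mul_assoc] using this
  -- key: an element of `W` fixed by `a` together with its `δ`-image is trivial
  have hX : ∀ w ∈ W, a * w = w * a → a * (k * w * k⁻¹) = (k * w * k⁻¹) * a → w = 1 := by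
    intro w hw h1 h2
    have e1 : a * w * a⁻¹ = w := by rw [h1]; group
    have e2 : a * (k * w * k⁻¹) * a⁻¹ = k * w * k⁻¹ := by rw [h2]; group
    have e3 := hinv w hw
    rw [e1, e2] at e3
    apply hfix w hw
    calc k * w * k⁻¹ = k⁻¹ * (k * (k * w * k⁻¹) * k⁻¹) * k := by group
      _ = k⁻¹ * (k * w * k⁻¹) * k := by rw [← e3]
      _ = w := by group
  -- `δ` preserves centralizers of subgroups of `A₀`
  have hdcen : ∀ D : Subgroup G, D ≤ A₀ → ∀ y ∈ W ⊓ centralizer (D : Set G),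
      k * y * k⁻¹ ∈ W ⊓ centralizer (D : Set G) := by
    intro D hD y hy
    refine ⟨hkW y hy.1, ?_⟩
    show k * y * k⁻¹ ∈ centralizer (D : Set G)
    rw [mem_centralizer_iff]
    intro x hx
    have e1 := hcomm x (hD hx) y hy.1
    have e2 : x * y * x⁻¹ = y := by
      have := mem_centralizer_iff.mp hy.2 x hx
      rw [this]; group
    rw [e2] at e1
    calc x * (k * y * k⁻¹) = x * (k * y * k⁻¹) * x⁻¹ * x := by group
      _ = k * y * k⁻¹ * x := by rw [e1]
  -- squares
  have hsq : ∀ N M : Subgroup G, N ≤ W → (∀ y ∈ N, a * y = y * a) → N ≤ M →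
      (∀ y ∈ N, k * y * k⁻¹ ∈ M) → Nat.card N * Nat.card N ≤ Nat.card M := by
    intro N M hNW hNa hNM hdM
    let g : N × N → M := fun p =>
      ⟨(p.1 : G) * (k * (p.2 : G) * k⁻¹), M.mul_mem (hNM p.1.2) (hdM _ p.2.2)⟩
    have hg : Function.Injective g := by
      rintro ⟨x, y⟩ ⟨x', y'⟩ h
      have h' : (x : G) * (k * (y : G) * k⁻¹) = (x' : G) * (k * (y' : G) * k⁻¹) :=
        congrArg (fun m : M => (m : G)) h
      have hzN : (y : G) * (y' : G)⁻¹ ∈ N := N.mul_mem y.2 (N.inv_mem y'.2)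
      have hz : (y : G) * (y' : G)⁻¹ = 1 := by
        apply hX _ (hNW hzN) (hNa _ hzN)
        have e : k * ((y : G) * (y' : G)⁻¹) * k⁻¹ = (x : G)⁻¹ * (x' : G) := by
          have e1 : k * ((y : G) * (y' : G)⁻¹) * k⁻¹ =
              (x : G)⁻¹ * ((x : G) * (k * (y : G) * k⁻¹)) * (k * (y' : G) * k⁻¹)⁻¹ := by group
          rw [e1, h']; group
        rw [e]
        exact hNa _ (N.mul_mem (N.inv_mem x.2) x'.2)
      have hy : y = y' := Subtype.ext (mul_inv_eq_one.mp hz)
      subst hy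
      have hx : (x : G) = (x' : G) := mul_right_cancel h'
      exact Prod.ext (Subtype.ext hx) rfl
    have := Nat.card_le_card_of_injective g hg
    rwa [Nat.card_prod] at this
  -- |A| ≤ 2 |A₀|
  have hcardA : Nat.card A ≤ 2 * Nat.card A₀ := by
    let f : A → A₀ ⊕ A₀ := fun x =>
      if h : (x : G) ∈ A₀ then Sum.inl ⟨x, h⟩ else Sum.inr ⟨a * x, (hA x x.2).resolve_left h⟩
    have hf : Function.Injective f := by
      intro x y hxy
      by_cases hx : (x : G) ∈ A₀
      · by_cases hy : (y : G) ∈ A₀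
        · simp only [f, dif_pos hx, dif_pos hy] at hxy
          exact Subtype.ext (by simpa using hxy)
        · simp only [f, dif_pos hx, dif_neg hy] at hxy
          exact absurd hxy (by simp)
      · by_cases hy : (y : G) ∈ A₀
        · simp only [f, dif_neg hx, dif_pos hy] at hxy
          exact absurd hxy (by simp)
        · simp only [f, dif_neg hx, dif_neg hy] at hxy
          have : a * (x : G) = a * (y : G) := by simpa using hxy
          exact Subtype.ext (mul_left_cancel this)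
    have := Nat.card_le_card_of_injective f hf
    rw [Nat.card_sum] at this
    omega
  -- Step 1
  obtain ⟨W₀, hW₀⟩ : ∃ W₀ : Subgroup G, W₀ = W ⊓ centralizer (A₀ : Set G) := ⟨_, rfl⟩
  obtain ⟨CA, hCA⟩ : ∃ CA : Subgroup G, CA = W ⊓ centralizer (A : Set G) := ⟨_, rfl⟩
  have hCAW₀ : CA ≤ W₀ := by
    rw [hCA, hW₀]
    exact inf_le_inf_left _ (centralizer_le (by exact_mod_cast hA₀))
  have hCAW : CA ≤ W := by rw [hCA]; exact inf_le_left
  have hW₀W : W₀ ≤ W := by rw [hW₀]; exact inf_le_left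
  have hCAa : ∀ y ∈ CA, a * y = y * a := by
    intro y hy
    rw [hCA] at hy
    exact mem_centralizer_iff.mp hy.2 a ha
  have h1 : Nat.card W₀ ≤ 2 * Nat.card CA := by
    have h := hstar A₀ W₀ hA₀ hW₀W (fun d hd u hu => by
      rw [hW₀] at hu
      exact mem_centralizer_iff.mp hu.2 d hd)
    have hle : Nat.card ↥(W₀ ⊓ centralizer (A : Set G)) ≤ Nat.card CA := by
      apply Subgroup.card_le_of_le
      rw [hCA]
      exact inf_le_inf_right _ hW₀W
    have hpos : 0 < Nat.card A₀ := Nat.card_pos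
    have h2 : Nat.card A₀ * Nat.card W₀ ≤ (2 * Nat.card A₀) * Nat.card CA :=
      h.trans (Nat.mul_le_mul hcardA hle)
    have h3 : Nat.card A₀ * Nat.card W₀ ≤ Nat.card A₀ * (2 * Nat.card CA) := by
      calc Nat.card A₀ * Nat.card W₀ ≤ (2 * Nat.card A₀) * Nat.card CA := h2
        _ = Nat.card A₀ * (2 * Nat.card CA) := by ring
    exact Nat.le_of_mul_le_mul_left h3 hpos
  have h2 : Nat.card CA * Nat.card CA ≤ Nat.card W₀ := by
    apply hsq CA W₀ hCAW hCAa hCAW₀
    intro y hy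
    have := hdcen A₀ le_rfl y (by rw [← hW₀]; exact hCAW₀ hy)
    rwa [← hW₀] at this
  have h3 : 2 ≤ Nat.card CA := by
    obtain ⟨n, hnW, hn1, hn⟩ :=
      Cfsg.Agent.Lib.Helper67.exists_fixed_of_pgroup_normalizes A W hAp hWp hAnW hW1
    have hnCA : n ∈ CA := by
      rw [hCA]
      refine ⟨hnW, ?_⟩
      show n ∈ centralizer (A : Set G)
      rw [mem_centralizer_iff]
      intro s hs
      have := hn s hs
      calc s * n = s * n * s⁻¹ * s := by group
        _ = n * s := by rw [this]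
    have hne : CA ≠ ⊥ := by
      intro h
      rw [h, mem_bot] at hnCA
      exact hn1 hnCA
    exact (Subgroup.one_lt_card_iff_ne_bot CA).mpr hne
  have hc2 : Nat.card CA = 2 := by nlinarith
  have hm4 : Nat.card W₀ = 4 := by
    rw [hc2] at h1 h2
    omega
  -- Step 2 : elements of `W` fixed by `a` are fixed by `A₀`
  have hstep2 : ∀ w ∈ W, a * w = w * a → ∀ x ∈ A₀, x * w = w * x := by
    intro w hw haw
    by_contra hcon
    push Not at hcon
    obtain ⟨x₀, hx₀, hx₀w⟩ := hcon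
    have hw1 : w ≠ 1 := by
      rintro rfl
      exact hx₀w (by simp)
    obtain ⟨D₀, hD₀⟩ : ∃ D₀ : Subgroup G, D₀ = A₀ ⊓ centralizer ({w} : Set G) := ⟨_, rfl⟩
    obtain ⟨N, hN⟩ : ∃ N : Subgroup G,
        N = (W ⊓ centralizer ({a} : Set G)) ⊓ centralizer (D₀ : Set G) := ⟨_, rfl⟩
    obtain ⟨M, hM⟩ : ∃ M : Subgroup G, M = W ⊓ centralizer (D₀ : Set G) := ⟨_, rfl⟩
    have hD₀A₀ : D₀ ≤ A₀ := by rw [hD₀]; exact inf_le_left
    have hD₀w : ∀ d ∈ D₀, d * w = w * d := by
      intro d hd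
      rw [hD₀] at hd
      have := mem_centralizer_iff.mp hd.2 w (Set.mem_singleton w)
      exact this.symm
    have hmemD₀ : ∀ d ∈ A₀, d * w = w * d → d ∈ D₀ := by
      intro d hd hdw
      rw [hD₀]
      refine ⟨hd, ?_⟩
      show d ∈ centralizer ({w} : Set G)
      rw [mem_centralizer_iff]
      intro h hh
      rw [Set.mem_singleton_iff] at hh
      rw [hh]; exact hdw.symm
    -- orbit elements lie in `N`
    have horb : ∀ x ∈ A₀, x * w * x⁻¹ ∈ N := by
      intro x hx
      rw [hN]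
      have hax : a * x = x * a := hAc a ha x (hA₀ hx)
      have hax' : a * x⁻¹ = x⁻¹ * a := by
        calc a * x⁻¹ = x⁻¹ * (x * a) * x⁻¹ := by group
          _ = x⁻¹ * (a * x) * x⁻¹ := by rw [hax]
          _ = x⁻¹ * a := by group
      refine ⟨⟨hAW x (hA₀ hx) w hw, ?_⟩, ?_⟩
      · show x * w * x⁻¹ ∈ centralizer ({a} : Set G)
        rw [mem_centralizer_iff]
        intro h hh
        rw [Set.mem_singleton_iff] at hh
        rw [hh]
        calc a * (x * w * x⁻¹) = (a * x) * w * x⁻¹ := by group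
          _ = x * (a * w) * x⁻¹ := by rw [hax]; group
          _ = x * w * (a * x⁻¹) := by rw [haw]; group
          _ = x * w * x⁻¹ * a := by rw [hax']; group
      · show x * w * x⁻¹ ∈ centralizer (D₀ : Set G)
        rw [mem_centralizer_iff]
        intro d hd
        have hdx : d * x = x * d := hAc d (hA₀ (hD₀A₀ hd)) x (hA₀ hx)
        have hdx' : d * x⁻¹ = x⁻¹ * d := by
          calc d * x⁻¹ = x⁻¹ * (x * d) * x⁻¹ := by group
            _ = x⁻¹ * (d * x) * x⁻¹ := by rw [hdx]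
            _ = x⁻¹ * d := by group
        have hdw := hD₀w d hd
        calc d * (x * w * x⁻¹) = (d * x) * w * x⁻¹ := by group
          _ = x * (d * w) * x⁻¹ := by rw [hdx]; group
          _ = x * w * (d * x⁻¹) := by rw [hdw]; group
          _ = x * w * x⁻¹ * d := by rw [hdx']; group
    have hNW : N ≤ W := by rw [hN]; exact inf_le_left.trans inf_le_left
    have hNa : ∀ y ∈ N, a * y = y * a := by
      intro y hy
      rw [hN] at hy
      exact mem_centralizer_iff.mp hy.1.2 a (Set.mem_singleton a)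
    have hNM : N ≤ M := by
      rw [hN, hM]
      exact inf_le_inf_right _ inf_le_left
    have hMW : M ≤ W := by rw [hM]; exact inf_le_left
    -- |N|^2 ≤ |M|
    have hNN : Nat.card N * Nat.card N ≤ Nat.card M := by
      apply hsq N M hNW hNa hNM
      intro y hy
      have := hdcen D₀ hD₀A₀ y (by rw [← hM]; exact hNM hy)
      rwa [← hM] at this
    -- |D₀| |M| ≤ 4 |A₀|
    have hDM : Nat.card D₀ * Nat.card M ≤ 4 * Nat.card A₀ := by
      have h := hstar D₀ M (hD₀A₀.trans hA₀) hMW (fun d hd u hu => by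
        rw [hM] at hu
        exact mem_centralizer_iff.mp hu.2 d hd)
      have hle : Nat.card ↥(M ⊓ centralizer (A : Set G)) ≤ Nat.card CA := by
        apply Subgroup.card_le_of_le
        rw [hCA]
        exact inf_le_inf_right _ hMW
      calc Nat.card D₀ * Nat.card M ≤ Nat.card A * Nat.card ↥(M ⊓ centralizer (A : Set G)) := h
        _ ≤ (2 * Nat.card A₀) * Nat.card CA := Nat.mul_le_mul hcardA hle
        _ = 4 * Nat.card A₀ := by rw [hc2]; ring
    -- orbit counting : |A₀| + |D₀| ≤ |D₀| |N|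
    have hcount : Nat.card A₀ + Nat.card D₀ ≤ Nat.card D₀ * Nat.card N := by
      let f : A₀ → G := fun x => (x : G) * w * (x : G)⁻¹
      let s : G → A₀ := fun n => if h : ∃ x : A₀, f x = n then h.choose else 1
      have hs : ∀ x : A₀, f (s (f x)) = f x := by
        intro x
        have h : ∃ x' : A₀, f x' = f x := ⟨x, rfl⟩
        simp only [s, dif_pos h]
        exact h.choose_spec
      have hD : ∀ x : A₀, ((s (f x) : A₀) : G)⁻¹ * (x : G) ∈ D₀ := by
        intro x
        apply hmemD₀ _ (A₀.mul_mem (A₀.inv_mem (s (f x)).2) x.2)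
        have h := hs x
        simp only [f] at h
        have h' : ((s ((x : G) * w * (x : G)⁻¹) : A₀) : G) * w * ((s ((x : G) * w * (x : G)⁻¹) : A₀) : G)⁻¹ =
            (x : G) * w * (x : G)⁻¹ := h
        calc ((s (f x) : A₀) : G)⁻¹ * (x : G) * w
            = ((s (f x) : A₀) : G)⁻¹ * ((x : G) * w * (x : G)⁻¹) * (x : G) := by group
          _ = ((s (f x) : A₀) : G)⁻¹ * (((s (f x) : A₀) : G) * w * ((s (f x) : A₀) : G)⁻¹) * (x : G) := by
              rw [← h']
          _ = w * (((s (f x) : A₀) : G)⁻¹ * (x : G)) := by group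
      let φ : A₀ ⊕ D₀ → D₀ × N := fun z =>
        match z with
        | Sum.inl x => (⟨((s (f x) : A₀) : G)⁻¹ * (x : G), hD x⟩, ⟨f x, horb x x.2⟩)
        | Sum.inr d => (d, 1)
      have hφ : Function.Injective φ := by
        rintro (x | d) (y | e) h
        · have h1 : f x = f y := congrArg (fun p : D₀ × N => ((p.2 : N) : G)) h
          have h2 : ((s (f x) : A₀) : G)⁻¹ * (x : G) = ((s (f y) : A₀) : G)⁻¹ * (y : G) :=
            congrArg (fun p : D₀ × N => ((p.1 : D₀) : G)) h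
          rw [h1] at h2
          exact congrArg Sum.inl (Subtype.ext (mul_left_cancel h2))
        · exfalso
          have h1 : f x = 1 := congrArg (fun p : D₀ × N => ((p.2 : N) : G)) h
          apply hw1
          have : (x : G) * w * (x : G)⁻¹ = 1 := h1
          calc w = (x : G)⁻¹ * ((x : G) * w * (x : G)⁻¹) * (x : G) := by group
            _ = 1 := by rw [this]; group
        · exfalso
          have h1 : (1 : G) = f y := congrArg (fun p : D₀ × N => ((p.2 : N) : G)) h
          apply hw1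
          have : (y : G) * w * (y : G)⁻¹ = 1 := h1.symm
          calc w = (y : G)⁻¹ * ((y : G) * w * (y : G)⁻¹) * (y : G) := by group
            _ = 1 := by rw [this]; group
        · have h1 : d = e := congrArg (fun p : D₀ × N => p.1) h
          exact congrArg Sum.inr h1
      have := Nat.card_le_card_of_injective φ hφ
      rwa [Nat.card_sum, Nat.card_prod] at this
    -- D₀ is proper in A₀
    have hprop : 2 * Nat.card D₀ ≤ Nat.card A₀ := by
      have hdvd : Nat.card D₀ ∣ Nat.card A₀ := Subgroup.card_dvd_of_le hD₀A₀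
      obtain ⟨c, hc⟩ := hdvd
      have hpos : 0 < Nat.card A₀ := Nat.card_pos
      have hposD : 0 < Nat.card D₀ := Nat.card_pos
      rcases Nat.lt_or_ge c 2 with hc2' | hc2'
      · exfalso
        have hc1 : c = 1 := by
          rcases Nat.eq_zero_or_pos c with h0 | h0
          · rw [h0] at hc; omega
          · omega
        rw [hc1, mul_one] at hc
        have heq : D₀ = A₀ := Subgroup.eq_of_le_of_card_ge hD₀A₀ (by rw [hc])
        have : x₀ ∈ D₀ := by rw [heq]; exact hx₀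
        exact hx₀w (hD₀w x₀ this)
      · rw [hc]
        calc 2 * Nat.card D₀ = Nat.card D₀ * 2 := by ring
          _ ≤ Nat.card D₀ * c := Nat.mul_le_mul_left _ hc2'
    -- arithmetic contradiction
    have hposD : 0 < Nat.card D₀ := Nat.card_pos
    obtain ⟨δ, hδ⟩ : ∃ δ, δ = Nat.card D₀ := ⟨_, rfl⟩
    obtain ⟨m, hm⟩ : ∃ m, m = Nat.card N := ⟨_, rfl⟩
    obtain ⟨α, hα⟩ : ∃ α, α = Nat.card A₀ := ⟨_, rfl⟩
    obtain ⟨μ, hμ⟩ : ∃ μ, μ = Nat.card M := ⟨_, rfl⟩
    rw [← hδ, ← hm, ← hα] at hcount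
    rw [← hδ, ← hα] at hprop
    rw [← hδ] at hposD
    rw [← hm, ← hμ] at hNN
    rw [← hδ, ← hμ, ← hα] at hDM
    have hm3 : 3 ≤ m := by
      by_contra hlt
      push Not at hlt
      have : δ * m ≤ δ * 2 := Nat.mul_le_mul_left _ (by omega)
      omega
    have e1 : δ * (m * m) ≤ 4 * α := (Nat.mul_le_mul_left _ hNN).trans hDM
    have e2 : 4 * m ≤ m * m + 3 := by nlinarith
    have e3 : δ * (4 * m) ≤ δ * (m * m + 3) := Nat.mul_le_mul_left _ e2
    nlinarith
  -- Step 3
  obtain ⟨Ca, hCa⟩ : ∃ Ca : Subgroup G, Ca = W ⊓ centralizer ({a} : Set G) := ⟨_, rfl⟩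
  have hCaCA : Ca ≤ CA := by
    intro w hw
    rw [hCa] at hw
    have haw : a * w = w * a := mem_centralizer_iff.mp hw.2 a (Set.mem_singleton a)
    rw [hCA]
    refine ⟨hw.1, ?_⟩
    show w ∈ centralizer (A : Set G)
    rw [mem_centralizer_iff]
    intro x hx
    rcases hA x hx with hx0 | hx0
    · exact hstep2 w hw.1 haw x hx0
    · have h := hstep2 w hw.1 haw (a * x) hx0
      -- a * x * w = w * (a * x)
      have : a * (x * w) = a * (w * x) := by
        calc a * (x * w) = a * x * w := by group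
          _ = w * (a * x) := h
          _ = (w * a) * x := by group
          _ = (a * w) * x := by rw [haw]
          _ = a * (w * x) := by group
      exact mul_left_cancel this
  have hCa2 : Nat.card Ca ≤ 2 := by
    rw [← hc2]
    exact Subgroup.card_le_of_le hCaCA
  have hmemCa : ∀ w ∈ W, a * w = w * a → w ∈ Ca := by
    intro w hw haw
    rw [hCa]
    refine ⟨hw, ?_⟩
    show w ∈ centralizer ({a} : Set G)
    rw [mem_centralizer_iff]
    intro h hh
    rw [Set.mem_singleton_iff] at hh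
    rw [hh]; exact haw
  have haa : a⁻¹ = a := inv_eq_of_mul_eq_one_right (hA2 a ha)
  have haW : ∀ w ∈ W, a * w * a⁻¹ ∈ W := fun w hw => hAW a ha w hw
  -- the trace map
  have htr : ∀ w ∈ W, w * (a * w * a⁻¹) ∈ Ca := by
    intro w hw
    apply hmemCa _ (W.mul_mem hw (haW w hw))
    have hc := hWc w hw (a * w * a⁻¹) (haW w hw)
    have e0 : a * (a * w * a⁻¹) * a⁻¹ = w := by
      calc a * (a * w * a⁻¹) * a⁻¹ = (a * a) * w * (a * a)⁻¹ := by group
        _ = w := by rw [hA2 a ha]; group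
    calc a * (w * (a * w * a⁻¹)) = (a * w * a⁻¹) * (a * (a * w * a⁻¹) * a⁻¹) * a := by group
      _ = (a * w * a⁻¹) * w * a := by rw [e0]
      _ = w * (a * w * a⁻¹) * a := by rw [hc]
  have hT : ∀ u ∈ W, ∀ u' ∈ W, u * (a * u * a⁻¹) = u' * (a * u' * a⁻¹) →
      a * (u * u'⁻¹) = (u * u'⁻¹) * a := by
    intro u hu u' hu' h
    have e1 : a * (u * u'⁻¹) * a⁻¹ = u⁻¹ * u' := by
      calc a * (u * u'⁻¹) * a⁻¹ = u⁻¹ * (u * (a * u * a⁻¹)) * (a * u' * a⁻¹)⁻¹ := by group
        _ = u⁻¹ * (u' * (a * u' * a⁻¹)) * (a * u' * a⁻¹)⁻¹ := by rw [h]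
        _ = u⁻¹ * u' := by group
    have e2 : u⁻¹ * u' = u * u'⁻¹ := by rw [hinvW u hu, hinvW u' hu']
    rw [e2] at e1
    calc a * (u * u'⁻¹) = a * (u * u'⁻¹) * a⁻¹ * a := by group
      _ = u * u'⁻¹ * a := by rw [e1]
  have hWle : Nat.card W ≤ Nat.card Ca * Nat.card Ca := by
    let g : W → Ca × Ca := fun w =>
      (⟨(w : G) * (a * (w : G) * a⁻¹), htr w w.2⟩,
       ⟨(k * (w : G) * k⁻¹) * (a * (k * (w : G) * k⁻¹) * a⁻¹), htr _ (hkW w w.2)⟩)
    have hg : Function.Injective g := by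
      intro w w' h
      have h1 : (w : G) * (a * (w : G) * a⁻¹) = (w' : G) * (a * (w' : G) * a⁻¹) :=
        congrArg (fun p : Ca × Ca => ((p.1 : Ca) : G)) h
      have h2 : (k * (w : G) * k⁻¹) * (a * (k * (w : G) * k⁻¹) * a⁻¹) =
          (k * (w' : G) * k⁻¹) * (a * (k * (w' : G) * k⁻¹) * a⁻¹) :=
        congrArg (fun p : Ca × Ca => ((p.2 : Ca) : G)) h
      have hzW : (w : G) * (w' : G)⁻¹ ∈ W := W.mul_mem w.2 (W.inv_mem w'.2)
      have e1 := hT _ w.2 _ w'.2 h1
      have e2 := hT _ (hkW w w.2) _ (hkW w' w'.2) h2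
      have e3 : (k * (w : G) * k⁻¹) * (k * (w' : G) * k⁻¹)⁻¹ = k * ((w : G) * (w' : G)⁻¹) * k⁻¹ := by
        group
      rw [e3] at e2
      have hz := hX _ hzW e1 e2
      exact Subtype.ext (mul_inv_eq_one.mp hz)
    have := Nat.card_le_card_of_injective g hg
    rwa [Nat.card_prod] at this
  have hW4 : Nat.card W ≤ 4 := by
    calc Nat.card W ≤ Nat.card Ca * Nat.card Ca := hWle
      _ ≤ 2 * 2 := Nat.mul_le_mul hCa2 hCa2
  have hW4' : 4 ≤ Nat.card W := by
    rw [← hm4]
    exact Subgroup.card_le_of_le hW₀W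
  omega

end Cfsg.Agent.Lib.Helper15.KS12
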