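import Mathlib
import Cfsg.Prelude.Def_JComponents
import Cfsg.Agent.Lib.Helper15.KS12.FourGroupCore
import Cfsg.Agent.Lib.Helper1.CoprimeAbelian
import Cfsg.Agent.Lib.Helper10.ElemAb
import Cfsg.Agent.Lib.Helper11.ThompsonOf
import Cfsg.Agent.Lib.Helper47.ZL
import Cfsg.Agent.Lib.Helper47.Subn
import Cfsg.Agent.Lib.Helper81.KS12.JCompConj
import Cfsg.Agent.Lib.Helper90.SylowCount

/-!
The four-group lemma for `J(T)`-components (Kurzweil–Stellmacher, Chapter 12): if `K` satisfies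
condition (1) of `IsJComponent T K` (generated by odd-order elements, `[K, J(T)] = K`,
`|K : O₂(K)| = 3`), `W_K = [Ω₁(Z(O₂(K))), K]` lies in `T` and is nontrivial, then `W_K` is a
four-group.  No structure theory is used: only that the members of `𝒜(T)` are elementary abelian
subgroups of `T` of largest order.
-/

set_option autoImplicit false

namespace Cfsg.Agent.Lib.Helper15.KS12

open Subgroup Cfsg
open scoped commutatorElement

variable {G : Type*} [Group G]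

/-- the elements of `N(Q)` that commute with `a` modulo `Q`. -/
def commModSub (Q : Subgroup G) (a : G) : Subgroup G where
  carrier := {x | x ∈ normalizer (Q : Set G) ∧ x * a * x⁻¹ * a⁻¹ ∈ Q}
  one_mem' := ⟨Subgroup.one_mem _, by simp⟩
  mul_mem' := by
    rintro x y ⟨hx, hxa⟩ ⟨hy, hya⟩
    refine ⟨Subgroup.mul_mem _ hx hy, ?_⟩
    have h1 : x * (y * a * y⁻¹ * a⁻¹) * x⁻¹ ∈ Q := (mem_normalizer_iff.mp hx _).mp hya
    have e : x * y * a * (x * y)⁻¹ * a⁻¹ =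
        x * (y * a * y⁻¹ * a⁻¹) * x⁻¹ * (x * a * x⁻¹ * a⁻¹) := by group
    show x * y * a * (x * y)⁻¹ * a⁻¹ ∈ Q
    rw [e]; exact Q.mul_mem h1 hxa
  inv_mem' := by
    rintro x ⟨hx, hxa⟩
    refine ⟨Subgroup.inv_mem _ hx, ?_⟩
    have h1 : x⁻¹ * (x * a * x⁻¹ * a⁻¹)⁻¹ * x⁻¹⁻¹ ∈ Q :=
      (mem_normalizer_iff.mp (Subgroup.inv_mem _ hx) _).mp (Q.inv_mem hxa)
    have e : x⁻¹ * a * x⁻¹⁻¹ * a⁻¹ = x⁻¹ * (x * a * x⁻¹ * a⁻¹)⁻¹ * x⁻¹⁻¹ := by group
    show x⁻¹ * a * x⁻¹⁻¹ * a⁻¹ ∈ Q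
    rw [e]; exact h1

theorem mem_commModSub {Q : Subgroup G} {a x : G} :
    x ∈ commModSub Q a ↔ x ∈ normalizer (Q : Set G) ∧ x * a * x⁻¹ * a⁻¹ ∈ Q := Iff.rfl

theorem commModSub_symm {Q : Subgroup G} {a x : G} (hx : x ∈ commModSub Q a)
    (ha : a ∈ normalizer (Q : Set G)) : a ∈ commModSub Q x := by
  refine ⟨ha, ?_⟩
  have e : a * x * a⁻¹ * x⁻¹ = (x * a * x⁻¹ * a⁻¹)⁻¹ := by group
  rw [e]; exact Q.inv_mem hx.2

theorem le_commModSub {Q : Subgroup G} {a : G} (ha : a ∈ normalizer (Q : Set G)) :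
    Q ≤ commModSub Q a := by
  intro q hq
  refine ⟨le_normalizer hq, ?_⟩
  have h1 : a * q⁻¹ * a⁻¹ ∈ Q := (mem_normalizer_iff.mp ha _).mp (Q.inv_mem hq)
  have e : q * a * q⁻¹ * a⁻¹ = q * (a * q⁻¹ * a⁻¹) := by group
  rw [e]; exact Q.mul_mem hq h1

/-- coset decomposition for a normal subgroup of prime index. -/
theorem exists_pow_mul_of_relIndex_prime [Finite G] {Q K : Subgroup G} {p : ℕ} [Fact p.Prime]
    (hQK : Q ≤ K) (hKQ : K ≤ normalizer (Q : Set G)) (hidx : Q.relIndex K = p) {k : G}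
    (hk : k ∈ K) (hkQ : k ∉ Q) : ∀ x ∈ K, ∃ n : ℕ, ∃ q ∈ Q, x = k ^ n * q := by
  have hn : (Q.subgroupOf K).Normal := (normal_subgroupOf_iff_le_normalizer hQK).mpr hKQ
  have hcard : Nat.card (K ⧸ Q.subgroupOf K) = p := by
    rw [← Subgroup.index_eq_card]; exact hidx
  have hne : (QuotientGroup.mk (⟨k, hk⟩ : K) : K ⧸ Q.subgroupOf K) ≠ 1 := by
    intro h
    rw [QuotientGroup.eq_one_iff, mem_subgroupOf] at h
    exact hkQ h
  have htop := zpowers_eq_top_of_prime_card hcard hne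
  intro x hx
  have hmem : (QuotientGroup.mk (⟨x, hx⟩ : K) : K ⧸ Q.subgroupOf K) ∈
      zpowers (QuotientGroup.mk (⟨k, hk⟩ : K) : K ⧸ Q.subgroupOf K) := by
    rw [htop]; exact mem_top _
  rw [← mem_powers_iff_mem_zpowers] at hmem
  obtain ⟨n, hn'⟩ := hmem
  have hn'' : (QuotientGroup.mk ((⟨k, hk⟩ : K) ^ n) : K ⧸ Q.subgroupOf K) =
      QuotientGroup.mk (⟨x, hx⟩ : K) := by
    rw [QuotientGroup.mk_pow]; exact hn'
  rw [QuotientGroup.eq, mem_subgroupOf] at hn''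
  refine ⟨n, (k ^ n)⁻¹ * x, ?_, by group⟩
  simpa using hn''

/-- **Four-group lemma.** -/
theorem card_wOf_eq_four [Finite G] (T K : Subgroup G)
    (h1 : Subgroup.closure {g : G | g ∈ K ∧ Odd (orderOf g)} = K)
    (h2 : ⁅K, thompsonSubgroupOf 2 T⁆ = K) (h3 : (pCoreOf 2 K).relIndex K = 3)
    (hWT : wOf K ≤ T) (hW : wOf K ≠ ⊥) :
    Nat.card ↥(wOf K) = 4 ∧ ∀ w ∈ wOf K, w * w = 1 := by
  classical
  have : Fact (Nat.Prime 2) := ⟨Nat.prime_two⟩
  have : Fact (Nat.Prime 3) := ⟨Nat.prime_three⟩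
  obtain ⟨Q, hQ⟩ : ∃ Q : Subgroup G, Q = pCoreOf 2 K := ⟨_, rfl⟩
  obtain ⟨U, hU⟩ : ∃ U : Subgroup G, U = omegaCenterOf Q := ⟨_, rfl⟩
  obtain ⟨J, hJ⟩ : ∃ J : Subgroup G, J = thompsonSubgroupOf 2 T := ⟨_, rfl⟩
  have hWdef : wOf K = ⁅U, K⁆ := by rw [hU, hQ]; rfl
  rw [← hJ] at h2
  rw [← hQ] at h3
  have hQK : Q ≤ K := by rw [hQ]; exact Cfsg.Agent.Lib.Helper47.pCoreOf_le 2 K
  have hQp : IsPGroup 2 Q := by rw [hQ]; exact Cfsg.Agent.Lib.Helper47.pCoreOf_isPGroup 2 K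
  have hKQ : K ≤ normalizer (Q : Set G) := by
    rw [hQ]; exact Cfsg.Agent.Lib.Helper47.le_normalizer_pCoreOf 2 K
  have hNKQ : normalizer (K : Set G) ≤ normalizer (Q : Set G) := by
    rw [hQ]; exact Cfsg.Agent.Lib.Helper47.normalizer_le_normalizer_pCoreOf 2 K
  have hNQU : normalizer (Q : Set G) ≤ normalizer (U : Set G) := by
    rw [hU]; exact Cfsg.Agent.Lib.Helper85.KS12.normalizer_le_normalizer_omegaCenterOf Q
  have hNKW : normalizer (K : Set G) ≤ normalizer (wOf K : Set G) :=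
    Cfsg.Agent.Lib.Helper81.KS12.normalizer_le_normalizer_wOf K
  -- `U` is elementary abelian and central in `Q`
  have hUle : U ≤ Q ⊓ centralizer (Q : Set G) := by
    rw [hU]; unfold omegaCenterOf; exact Cfsg.Agent.Lib.Helper47.omegaOne_le 2 _
  have hUea : IsElementaryAbelian 2 U := by
    rw [hU]; unfold omegaCenterOf
    apply Cfsg.Agent.Lib.Helper47.isElementaryAbelian_omegaOne
    intro x hx y hy
    exact mem_centralizer_iff.mp hy.2 x hx.1
  have hUc : ∀ x ∈ U, ∀ y ∈ U, x * y = y * x :=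
    (Cfsg.Agent.Lib.Helper10.isElementaryAbelian_iff.mp hUea).1
  have hU2 : ∀ x ∈ U, x * x = 1 := fun x hx => by
    have := (Cfsg.Agent.Lib.Helper10.isElementaryAbelian_iff.mp hUea).2 x hx
    rwa [pow_two] at this
  have hQU : ∀ q ∈ Q, ∀ u ∈ U, q * u = u * q := fun q hq u hu =>
    mem_centralizer_iff.mp (hUle hu).2 q hq
  have hconjU : ∀ g ∈ normalizer (Q : Set G), ∀ u ∈ U, g * u * g⁻¹ ∈ U := fun g hg u hu =>
    (mem_normalizer_iff.mp (hNQU hg) u).mp hu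
  have hQUconj : ∀ q ∈ Q, ∀ u ∈ U, q * u * q⁻¹ = u := fun q hq u hu => by
    rw [hQU q hq u hu]; group
  -- `W ≤ U`
  have hWU : wOf K ≤ U := by
    rw [hWdef, Subgroup.commutator_le]
    intro u hu x hx
    have h := hconjU x (hKQ hx) u⁻¹ (U.inv_mem hu)
    have e : ⁅u, x⁆ = u * (x * u⁻¹ * x⁻¹) := by rw [commutatorElement_def]; group
    rw [e]; exact U.mul_mem hu h
  -- an element `k` of order `3` outside `Q`
  have hKnQ : ¬ K ≤ Q := by
    intro h
    have : Q.relIndex K = 1 := relIndex_eq_one.mpr h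
    omega
  obtain ⟨k, hkK, hkodd, hkQ⟩ : ∃ k, k ∈ K ∧ Odd (orderOf k) ∧ k ∉ Q := by
    by_contra hcon
    push Not at hcon
    apply hKnQ
    have : Subgroup.closure {g : G | g ∈ K ∧ Odd (orderOf g)} ≤ Q := by
      rw [closure_le]
      intro g hg
      exact hcon g hg.1 hg.2
    rwa [h1] at this
  have hQn : (Q.subgroupOf K).Normal := (normal_subgroupOf_iff_le_normalizer hQK).mpr hKQ
  have hk3Q : k ^ 3 ∈ Q := by
    have h := Subgroup.pow_index_mem (Q.subgroupOf K) (⟨k, hkK⟩ : K)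
    have hidx : (Q.subgroupOf K).index = 3 := h3
    rw [hidx, mem_subgroupOf] at h
    simpa using h
  have hk3 : k ^ 3 = 1 := by
    obtain ⟨j, hj⟩ := hQp ⟨k ^ 3, hk3Q⟩
    have hj' : (k ^ 3) ^ (2 ^ j) = 1 := by
      have := congrArg Subtype.val hj
      simpa using this
    have hd1 : orderOf (k ^ 3) ∣ 2 ^ j := orderOf_dvd_of_pow_eq_one hj'
    have hd2 : orderOf (k ^ 3) ∣ orderOf k := orderOf_pow_dvd 3
    have hc : Nat.Coprime (orderOf k) (2 ^ j) :=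
      Nat.Coprime.pow_right j (Nat.coprime_two_left.mpr hkodd).symm
    have hc' : Nat.Coprime (orderOf (k ^ 3)) (2 ^ j) := Nat.Coprime.coprime_dvd_left hd2 hc
    exact orderOf_eq_one_iff.mp (Nat.Coprime.eq_one_of_dvd hc' hd1)
  have hdec := exists_pow_mul_of_relIndex_prime hQK hKQ h3 hkK hkQ
  have hkN : k ∈ normalizer (Q : Set G) := hKQ hkK
  have hkkN : k * k ∈ normalizer (Q : Set G) := Subgroup.mul_mem _ hkN hkN
  have hdec3 : ∀ x ∈ K, ∃ q ∈ Q, x = q ∨ x = k * q ∨ x = k * k * q := by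
    intro x hx
    obtain ⟨n, q, hq, rfl⟩ := hdec x hx
    refine ⟨q, hq, ?_⟩
    have hn : k ^ n = k ^ (n % 3) := pow_eq_pow_mod n hk3
    have hlt : n % 3 < 3 := Nat.mod_lt _ (by norm_num)
    rw [hn]
    interval_cases (n % 3)
    · left; simp
    · right; left; simp
    · right; right; rw [pow_two]
  -- `J` normalizes `K`
  have hJK : J ≤ normalizer (K : Set G) := by
    have hle : ⁅K, J⁆ ≤ K := h2.le
    rw [Subgroup.commutator_le] at hle
    have key : ∀ j ∈ J, ∀ x ∈ K, j * x * j⁻¹ ∈ K := by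
      intro j hj x hx
      have h := hle x⁻¹ (K.inv_mem hx) j hj
      have e : j * x * j⁻¹ = x * ⁅x⁻¹, j⁆ := by rw [commutatorElement_def]; group
      rw [e]; exact K.mul_mem hx h
    intro j hj
    rw [mem_normalizer_iff]
    intro x
    constructor
    · exact key j hj x
    · intro hx
      have h := key j⁻¹ (J.inv_mem hj) _ hx
      have e : j⁻¹ * (j * x * j⁻¹) * j⁻¹⁻¹ = x := by group
      rwa [e] at h
  -- some `x ∈ K`, `j ∈ J` do not commute modulo `Q`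
  have hA1 : ∃ x ∈ K, ∃ j ∈ J, ⁅x, j⁆ ∉ Q := by
    by_contra hcon
    push Not at hcon
    exact hKnQ (h2.symm.le.trans ((Subgroup.commutator_le).mpr hcon))
  have hJsup : J = sSup (Cfsg.Agent.Lib.Helper11.maxElemAbIn 2 T) := by
    rw [hJ]; exact Cfsg.Agent.Lib.Helper11.thompsonSubgroupOf_eq 2 T
  obtain ⟨A, hAmem, a, haA, hacomm⟩ : ∃ A ∈ Cfsg.Agent.Lib.Helper11.maxElemAbIn 2 T,
      ∃ a ∈ A, a ∉ commModSub Q k := by
    by_contra hcon
    push Not at hcon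
    have hJle : J ≤ commModSub Q k := by
      rw [hJsup]; exact sSup_le (fun A hA a ha => hcon A hA a ha)
    obtain ⟨x, hx, j, hj, hxj⟩ := hA1
    apply hxj
    have hjN : j ∈ normalizer (Q : Set G) := hNKQ (hJK hj)
    have hkj : k ∈ commModSub Q j := commModSub_symm (hJle hj) hkN
    have hQj : Q ≤ commModSub Q j := le_commModSub hjN
    have hKj : K ≤ commModSub Q j := by
      intro y hy
      obtain ⟨n, q, hq, rfl⟩ := hdec y hy
      exact Subgroup.mul_mem _ (Subgroup.pow_mem _ hkj n) (hQj hq)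
    have h := (hKj hx).2
    rwa [commutatorElement_def]
  obtain ⟨hAT, hAea, hAmax⟩ := hAmem
  have hAJ : A ≤ J := by
    rw [hJsup]; exact le_sSup ⟨hAT, hAea, hAmax⟩
  have hAc : ∀ x ∈ A, ∀ y ∈ A, x * y = y * x :=
    (Cfsg.Agent.Lib.Helper10.isElementaryAbelian_iff.mp hAea).1
  have hA2 : ∀ x ∈ A, x * x = 1 := fun x hx => by
    have := (Cfsg.Agent.Lib.Helper10.isElementaryAbelian_iff.mp hAea).2 x hx
    rwa [pow_two] at this
  have hAN : A ≤ normalizer (Q : Set G) := hAJ.trans (hJK.trans hNKQ)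
  -- types of the action on `K / Q`
  have htype : ∀ g ∈ normalizer (K : Set G),
      g ∈ commModSub Q k ∨ ∃ q ∈ Q, g * k * g⁻¹ = k * k * q := by
    intro g hg
    have hgN : g ∈ normalizer (Q : Set G) := hNKQ hg
    have hgk : g * k * g⁻¹ ∈ K := (mem_normalizer_iff.mp hg k).mp hkK
    obtain ⟨q, hq, h | h | h⟩ := hdec3 _ hgk
    · exfalso
      apply hkQ
      have : g * k * g⁻¹ ∈ Q := by rw [h]; exact hq
      exact (mem_normalizer_iff.mp hgN k).mpr this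
    · left
      refine ⟨hgN, ?_⟩
      rw [h]
      have e : k * q * k⁻¹ ∈ Q := (mem_normalizer_iff.mp hkN q).mp hq
      exact e
    · right
      exact ⟨q, hq, h⟩
  have haN : a ∈ normalizer (Q : Set G) := hAN haA
  obtain ⟨qa, hqa, hak⟩ : ∃ q ∈ Q, a * k * a⁻¹ = k * k * q := by
    rcases htype a (hJK (hAJ haA)) with h | h
    · exact absurd h hacomm
    · exact h
  obtain ⟨A₀, hA₀⟩ : ∃ A₀ : Subgroup G, A₀ = A ⊓ commModSub Q k := ⟨_, rfl⟩
  have hA₀A : A₀ ≤ A := by rw [hA₀]; exact inf_le_left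
  have hAsplit : ∀ x ∈ A, x ∈ A₀ ∨ a * x ∈ A₀ := by
    intro x hx
    rcases htype x (hJK (hAJ hx)) with h | ⟨qx, hqx, hxk⟩
    · left; rw [hA₀]; exact ⟨hx, h⟩
    · right
      rw [hA₀]
      refine ⟨A.mul_mem haA hx, Subgroup.mul_mem _ haN (hAN hx), ?_⟩
      have hq1 : k * k * qa * (k * k)⁻¹ ∈ Q := (mem_normalizer_iff.mp hkkN qa).mp hqa
      have hq2 : a * qx * a⁻¹ ∈ Q := (mem_normalizer_iff.mp haN qx).mp hqx
      have hq3 : k * (qa * (a * qx * a⁻¹)) * k⁻¹ ∈ Q :=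
        (mem_normalizer_iff.mp hkN _).mp (Q.mul_mem hqa hq2)
      have e : a * x * k * (a * x)⁻¹ * k⁻¹ =
          (k * k * qa * (k * k)⁻¹) * (k * (qa * (a * qx * a⁻¹)) * k⁻¹) := by
        calc a * x * k * (a * x)⁻¹ * k⁻¹ = a * (x * k * x⁻¹) * a⁻¹ * k⁻¹ := by group
          _ = a * (k * k * qx) * a⁻¹ * k⁻¹ := by rw [hxk]
          _ = (a * k * a⁻¹) * (a * k * a⁻¹) * (a * qx * a⁻¹) * k⁻¹ := by group
          _ = (k * k * qa) * (k * k * qa) * (a * qx * a⁻¹) * k⁻¹ := by rw [hak]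
          _ = (k * k * qa * (k * k)⁻¹) * k ^ 3 * (k * (qa * (a * qx * a⁻¹)) * k⁻¹) := by
              simp only [pow_succ, pow_zero, one_mul, mul_assoc, mul_inv_rev, inv_mul_cancel_left]
          _ = (k * k * qa * (k * k)⁻¹) * (k * (qa * (a * qx * a⁻¹)) * k⁻¹) := by
              rw [hk3, mul_one]
      rw [e]; exact Q.mul_mem hq1 hq3
  -- hypotheses of the core
  have hWc : ∀ x ∈ wOf K, ∀ y ∈ wOf K, x * y = y * x := fun x hx y hy =>
    hUc x (hWU hx) y (hWU hy)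
  have hW2 : ∀ x ∈ wOf K, x * x = 1 := fun x hx => hU2 x (hWU hx)
  have hkW : ∀ w ∈ wOf K, k * w * k⁻¹ ∈ wOf K := fun w hw =>
    (mem_normalizer_iff.mp (hNKW (le_normalizer hkK)) w).mp hw
  have hAW : ∀ x ∈ A, ∀ w ∈ wOf K, x * w * x⁻¹ ∈ wOf K := fun x hx w hw =>
    (mem_normalizer_iff.mp (hNKW (hJK (hAJ hx))) w).mp hw
  have hfix : ∀ w ∈ wOf K, k * w * k⁻¹ = w → w = 1 := by
    intro w hw hkw
    have : IsMulCommutative U := hUea.1
    have hZU : zpowers k ≤ normalizer (U : Set G) := zpowers_le.mpr (hNQU hkN)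
    have hcop : (Nat.card (zpowers k)).Coprime (Nat.card U) := by
      rw [Nat.card_zpowers]
      obtain ⟨m, hm⟩ := IsPGroup.iff_card.mp (hQp.to_le (hUle.trans inf_le_left))
      rw [hm]
      exact Nat.Coprime.pow_right m (Nat.coprime_two_left.mpr hkodd).symm
    have hdis := Cfsg.Agent.Lib.Helper1.abelian_centralizer_inf_commutator (zpowers k) U hZU hcop
    have hWZ : wOf K ≤ ⁅U, zpowers k⁆ := by
      rw [hWdef, Subgroup.commutator_le]
      intro u hu x hx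
      obtain ⟨n, q, hq, rfl⟩ := hdec x hx
      have e1 : q * u⁻¹ * q⁻¹ = u⁻¹ := hQUconj q hq u⁻¹ (U.inv_mem hu)
      have e : ⁅u, k ^ n * q⁆ = ⁅u, k ^ n⁆ := by
        rw [commutatorElement_def, commutatorElement_def]
        calc u * (k ^ n * q) * u⁻¹ * (k ^ n * q)⁻¹ = u * k ^ n * (q * u⁻¹ * q⁻¹) * (k ^ n)⁻¹ := by
              group
          _ = u * k ^ n * u⁻¹ * (k ^ n)⁻¹ := by rw [e1]
      rw [e]
      exact Subgroup.commutator_mem_commutator hu (Subgroup.pow_mem _ (mem_zpowers k) n)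
    have hwc : w ∈ centralizer ((zpowers k : Subgroup G) : Set G) := by
      rw [mem_centralizer_iff]
      intro h hh
      obtain ⟨i, rfl⟩ := mem_zpowers_iff.mp hh
      have hc : Commute k w := by
        show k * w = w * k
        calc k * w = k * w * k⁻¹ * k := by group
          _ = w * k := by rw [hkw]
      exact (hc.zpow_left i).eq
    have hmem : w ∈ (U ⊓ centralizer ((zpowers k : Subgroup G) : Set G)) ⊓ ⁅U, zpowers k⁆ :=
      ⟨⟨hWU hw, hwc⟩, hWZ hw⟩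
    rw [hdis, mem_bot] at hmem
    exact hmem
  have hcomm : ∀ x ∈ A₀, ∀ w ∈ wOf K, x * (k * w * k⁻¹) * x⁻¹ = k * (x * w * x⁻¹) * k⁻¹ := by
    intro x hx w hw
    rw [hA₀] at hx
    have hxN : x ∈ normalizer (Q : Set G) := hAN hx.1
    have hq : x * k * x⁻¹ * k⁻¹ ∈ Q := hx.2.2
    have hu : k * (x * w * x⁻¹) * k⁻¹ ∈ U := hconjU k hkN _ (hconjU x hxN w (hWU hw))
    have e := hQUconj _ hq _ hu
    calc x * (k * w * k⁻¹) * x⁻¹
        = (x * k * x⁻¹ * k⁻¹) * (k * (x * w * x⁻¹) * k⁻¹) * (x * k * x⁻¹ * k⁻¹)⁻¹ := by group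
      _ = k * (x * w * x⁻¹) * k⁻¹ := e
  have hinv : ∀ w ∈ wOf K, a * (k * w * k⁻¹) * a⁻¹ = k * (k * (a * w * a⁻¹) * k⁻¹) * k⁻¹ := by
    intro w hw
    have hv : a * w * a⁻¹ ∈ U := hconjU a haN w (hWU hw)
    have e := hQUconj qa hqa _ hv
    calc a * (k * w * k⁻¹) * a⁻¹ = (a * k * a⁻¹) * (a * w * a⁻¹) * (a * k * a⁻¹)⁻¹ := by group
      _ = (k * k * qa) * (a * w * a⁻¹) * (k * k * qa)⁻¹ := by rw [hak]
      _ = k * (k * (qa * (a * w * a⁻¹) * qa⁻¹) * k⁻¹) * k⁻¹ := by group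
      _ = k * (k * (a * w * a⁻¹) * k⁻¹) * k⁻¹ := by rw [e]
  have hstar : ∀ D U' : Subgroup G, D ≤ A → U' ≤ wOf K → (∀ d ∈ D, ∀ u ∈ U', d * u = u * d) →
      Nat.card D * Nat.card U' ≤ Nat.card A * Nat.card ↥(U' ⊓ centralizer (A : Set G)) := by
    intro D U' hD hU' hDU'
    have hDea : IsElementaryAbelian 2 D := Cfsg.Agent.Lib.Helper10.isElementaryAbelian_mono hAea hD
    have hU'ea : IsElementaryAbelian 2 U' :=
      Cfsg.Agent.Lib.Helper10.isElementaryAbelian_mono hUea (hU'.trans hWU)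
    have hsup : IsElementaryAbelian 2 (D ⊔ U') :=
      Cfsg.Agent.Lib.Helper10.isElementaryAbelian_sup hDea hU'ea hDU'
    have hle : D ⊔ U' ≤ T := sup_le (hD.trans hAT) (hU'.trans hWT)
    have hmax : Nat.card ↥(D ⊔ U') ≤ Nat.card A := hAmax (D ⊔ U') hle hsup
    have hDn : D ≤ normalizer (U' : Set G) := by
      intro d hd
      rw [mem_normalizer_iff]
      intro h
      constructor
      · intro hh
        have : d * h * d⁻¹ = h := by rw [hDU' d hd h hh]; group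
        rw [this]; exact hh
      · intro hh
        have e1 := hDU' d hd _ hh
        have : h = d * h * d⁻¹ := by
          calc h = d⁻¹ * ((d * h * d⁻¹) * d) := by group
            _ = d⁻¹ * (d * (d * h * d⁻¹)) := by rw [e1]
            _ = d * h * d⁻¹ := by group
        rw [this]; exact hh
    have hprod := Cfsg.Agent.Lib.Helper90.card_sup_mul_card_inf_of_le_normalizer hDn
    have hinf : D ⊓ U' ≤ U' ⊓ centralizer (A : Set G) := by
      intro x hx
      refine ⟨hx.2, ?_⟩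
      show x ∈ centralizer (A : Set G)
      rw [mem_centralizer_iff]
      intro h hh
      exact hAc h hh x (hD hx.1)
    calc Nat.card D * Nat.card U' = Nat.card ↥(D ⊔ U') * Nat.card ↥(D ⊓ U') := hprod.symm
      _ ≤ Nat.card A * Nat.card ↥(U' ⊓ centralizer (A : Set G)) :=
          Nat.mul_le_mul hmax (Subgroup.card_le_of_le hinf)
  exact ⟨four_group_core (wOf K) A A₀ k a hWc hW2 hW hkW hfix hAW hAc hA2 hA₀A haA hAsplit hcomm
    hinv hstar, hW2⟩

end Cfsg.Agent.Lib.Helper15.KS12
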